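import Cfsg.Agent.H302.RIM.Six
import Cfsg.Agent.H610.NX.XCentral

/-!
# S4816, layer (B), `p = 3`: the count for two layers (helper586)
-/

set_option autoImplicit false
set_option linter.unusedSectionVars false
set_option linter.style.haveILetI false

open Subgroup

namespace Cfsg.Agent.H586.RIM

open Cfsg.Agent.H586.NX Cfsg.Agent.H263.RIM
open Cfsg.Agent.H302.RIM (exists_SX' ineq_pow num_four le_five)
open Cfsg.Agent.H662.GW
open Cfsg.Agent.H37.NW (P)
open Cfsg.Agent.H994.NX (P2 P3 P4 P5)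
open Cfsg.Agent.LieClassical.SympCount
open Cfsg.Agent.H727.GW Module

section grp

variable {Y : Type*} [Group Y] [Finite Y] {X : Subgroup Y}

/-- the index of the centralizer -/
theorem index_gen (hX : X ≤ center Y) {m : ℕ} (hm : Nat.Coprime m (Nat.card X)) {z : Y}
    (hd : m ∣ Nat.card (centralizer ({z} : Set Y))) :
    (centralizer ({z} : Set Y)).index * m ≤ Nat.card (Y ⧸ X) := by
  have h1 : X ≤ centralizer ({z} : Set Y) := hX.trans (center_le_centralizer _)
  have h2 : m * Nat.card X ∣ Nat.card (centralizer ({z} : Set Y)) :=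
    Nat.Coprime.mul_dvd_of_dvd_of_dvd hm hd (card_dvd_of_le h1)
  have h3 := Nat.le_of_dvd Nat.card_pos h2
  have h4 := (centralizer ({z} : Set Y)).card_mul_index
  have h5 := card_eq_card_quotient_mul_card_subgroup X
  have h6 : (centralizer ({z} : Set Y)).index * m * Nat.card X ≤ Nat.card (Y ⧸ X) * Nat.card X := by
    calc _ = (m * Nat.card X) * (centralizer ({z} : Set Y)).index := by ring
      _ ≤ Nat.card (centralizer ({z} : Set Y)) * (centralizer ({z} : Set Y)).index := Nat.mul_le_mul_right _ h3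
      _ = _ := by rw [h4, h5]
  exact Nat.le_of_mul_le_mul_right h6 Nat.card_pos

/-- an element of order `3` with a small class -/
theorem exists_small (hX : X ≤ center Y) (h3X : ¬ 3 ∣ Nat.card X) (h3 : 3 ∣ Nat.card (Y ⧸ X)) :
    ∃ y : Y, orderOf y = 3 ∧ (centralizer ({y} : Set Y)).index * 3 ≤ Nat.card (Y ⧸ X) ∧
      (9 ∣ Nat.card (Y ⧸ X) → ¬ 27 ∣ Nat.card (Y ⧸ X) →
        (centralizer ({y} : Set Y)).index * 9 ≤ Nat.card (Y ⧸ X)) := by
  haveI : Fact (Nat.Prime 3) := ⟨Nat.prime_three⟩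
  have hY : Nat.card Y = Nat.card (Y ⧸ X) * Nat.card X := card_eq_card_quotient_mul_card_subgroup X
  have hcop : Nat.Coprime 3 (Nat.card X) := (Nat.Prime.coprime_iff_not_dvd Nat.prime_three).2 h3X
  obtain ⟨P⟩ : Nonempty (Sylow 3 Y) := inferInstance
  have h3P : 3 ∣ Nat.card P := P.dvd_card_of_dvd_card (h3.trans ⟨_, hY⟩)
  obtain ⟨x, hx⟩ := exists_prime_orderOf_dvd_card' 3 h3P
  have hx' : orderOf (x : Y) = 3 := by rw [Subgroup.orderOf_coe, hx]
  refine ⟨x, hx', ?_, fun h9 h27 => ?_⟩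
  · refine index_gen hX hcop ?_
    have h1 : Nat.card (zpowers (x : Y)) ∣ Nat.card (centralizer ({(x : Y)} : Set Y)) := by
      refine card_dvd_of_le ?_
      rw [zpowers_le, mem_centralizer_singleton_iff]
    rwa [Nat.card_zpowers, hx'] at h1
  · refine index_gen hX (Nat.Coprime.pow_left 2 hcop) ?_
    -- the Sylow subgroup has order `9`
    obtain ⟨k, hk⟩ := IsPGroup.iff_card.1 P.isPGroup'
    have hk2 : k ≤ 2 := by
      by_contra hcon
      apply h27
      have h4 : 3 ^ 3 ∣ Nat.card Y := by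
        refine dvd_trans ?_ (card_subgroup_dvd_card (P : Subgroup Y))
        rw [hk]
        exact pow_dvd_pow 3 (by omega)
      rw [hY] at h4
      exact (Nat.Coprime.pow_left 3 hcop).dvd_of_dvd_mul_right h4
    have hk2' : 2 ≤ k := by
      have h4 : 3 ^ 2 ∣ Nat.card P := P.pow_dvd_card_of_pow_dvd_card (h9.trans ⟨_, hY⟩)
      rw [hk] at h4
      exact (Nat.pow_dvd_pow_iff_le_right (by norm_num)).1 h4
    have hk' : k = 2 := by omega
    rw [hk'] at hk
    have hcomm : ∀ a b : P, a * b = b * a := (IsPGroup.isMulCommutative_of_card_eq_prime_sq hk).is_comm.comm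
    have h5 : Nat.card P ∣ Nat.card (centralizer ({(x : Y)} : Set Y)) := by
      refine card_dvd_of_le fun y hy => ?_
      rw [mem_centralizer_singleton_iff]
      exact congrArg Subtype.val (hcomm ⟨y, hy⟩ x)
    rwa [hk] at h5

end grp

section fix

variable {p s n f : ℕ} {Y U : Type*} [Group Y] [Finite Y] [AddCommGroup U] [Finite U] [DistribMulAction Y U]
  {X : Subgroup Y}

theorem exists_fix0 {B : U → U → ZMod s} (h : SP0 p s n f X B) {x : Y} (hx : orderOf x = p) :
    ∃ j : ℕ, 1 ≤ j ∧ j ≤ n ∧ Nat.card {u : U // x • u = u} = s ^ (2 * (n - j)) := by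
  haveI := Fact.mk h.hs
  obtain ⟨M, B', ρ, h1, -, h2, h3, h4, h5⟩ := setup B h.faith h.exp h.card h.addl h.addr h.alt h.nd h.inv
  have hxm : (ρ x : U ≃ₗ[ZMod s] U) ∈ isomGroup B' := (ρ x).2
  have hord : orderOf (ρ x : U ≃ₗ[ZMod s] U) = p := by
    rw [Subgroup.orderOf_coe, orderOf_injective _ h2, hx]
  have hxp : (ρ x : U ≃ₗ[ZMod s] U) ^ p = 1 := hord ▸ pow_orderOf_eq_one _
  have hC := nondeg_fix h4 hxm (cast_ne h.hp h.hs h.hps) hxp
  obtain ⟨k, hk⟩ := even_finrank _ (fixS (ρ x : U ≃ₗ[ZMod s] U)) (B'.restrict _) (fun c => h3 c)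
    (fun c hc => Subtype.ext (hC c c.2 fun c' hc' => hc ⟨c', hc'⟩)) rfl
  have hle := Submodule.finrank_le (fixS (ρ x : U ≃ₗ[ZMod s] U))
  have hne : finrank (ZMod s) (fixS (ρ x : U ≃ₗ[ZMod s] U)) ≠ finrank (ZMod s) U := by
    intro heq
    have h6 := Submodule.eq_top_of_finrank_eq heq
    have h7 : x = 1 := h.faith x fun u => by
      have h8 : u ∈ fixS (ρ x : U ≃ₗ[ZMod s] U) := by rw [h6]; exact Submodule.mem_top
      rw [mem_fixS, h5] at h8
      exact h8
    rw [h7, orderOf_one] at hx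
    exact h.hp.one_lt.ne hx
  have hkn : k < n := by omega
  have h6 : Nat.card {u : U // x • u = u} = Nat.card (fixS (ρ x : U ≃ₗ[ZMod s] U)) := by
    refine Nat.card_congr (Equiv.subtypeEquivRight fun u => ?_)
    show x • u = u ↔ (ρ x : U ≃ₗ[ZMod s] U) u = u
    rw [h5]
  refine ⟨n - k, by omega, by omega, ?_⟩
  rw [h6, Module.natCard_eq_pow_finrank (K := ZMod s), Nat.card_zmod, hk]
  congr 1
  omega

/-- `3 ^ e ≤ 4 ^ n M` -/
theorem ineq_all {n j f M e : ℕ} (hf : 1 ≤ f) (hj : 1 ≤ j) (hjn : j ≤ n) (he : 3 * e ≤ 2 ^ n + 2)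
    (hI : Ineq 3 2 n j (3 ^ f) M) : 3 ^ e ≤ 2 ^ (2 * n) * M := by
  have h1 : 2 * 2 ^ (n - j) ≤ 2 ^ n := by
    have h2 : 2 * 2 ^ (n - j) = 2 ^ (n - j + 1) := by rw [pow_succ]; ring
    rw [h2]
    exact Nat.pow_le_pow_right (by norm_num) (by omega)
  refine (ineq_pow (e := e) hf (by omega) hI).trans ?_
  exact Nat.mul_le_mul_right _ (Nat.pow_le_pow_right (by norm_num) (by omega))

end fix

section two

theorem two_le {n f : ℕ} {Y U : Type*} [Group Y] [Finite Y] [AddCommGroup U] [Finite U] [DistribMulAction Y U]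
    {X : Subgroup Y} {B : U → U → ZMod 2} (h : SP 3 2 n f X B) : 2 ≤ n := by
  haveI : Fact (Nat.Prime 3) := ⟨Nat.prime_three⟩
  by_contra hn
  have h1 : n = 1 := by have := h.hn; omega
  subst h1
  obtain ⟨q₀, S⟩ := exists_SX' h
  have h2 := card_dvd S
  rw [show P 2 1 = 6 by decide] at h2
  have h3 := S.pY
  obtain ⟨Q⟩ : Nonempty (Sylow 3 Y) := inferInstance
  have h4 : 3 ∣ Nat.card Q := Q.dvd_card_of_dvd_card h3
  have h5 : Nat.card Q * (Q : Subgroup Y).index = Nat.card Y := (Q : Subgroup Y).card_mul_index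
  obtain ⟨c, hc⟩ := h4
  have h6 : (Q : Subgroup Y).index ∣ 2 := by
    have h7 : 3 * (Q : Subgroup Y).index ∣ 6 := by
      refine dvd_trans ?_ h2
      rw [← h5, hc]
      exact ⟨c, by ring⟩
    exact Nat.dvd_of_mul_dvd_mul_left (by norm_num : 0 < 3) (by simpa using h7)
  -- `Q` is normal with abelian quotient
  have hQn : (Q : Subgroup Y).Normal := by
    rcases (Nat.dvd_prime Nat.prime_two).1 h6 with h7 | h7
    · rw [Subgroup.index_eq_one.1 h7]
      infer_instance
    · exact Subgroup.normal_of_index_eq_two h7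
  have hcard : ∀ {A : Type _} [Group A] [Finite A], Nat.card A ∣ 2 → ∀ a b : A, a * b = b * a := by
    intro A _ _ hA a b
    have h8 : ∀ x : A, x * x = 1 := by
      intro x
      have h9 := orderOf_dvd_iff_pow_eq_one.1 ((orderOf_dvd_natCard x).trans hA)
      rwa [sq] at h9
    have h9 := h8 (a * b)
    have ha := h8 a
    have hb := h8 b
    calc a * b = (b * b) * (a * b) := by rw [hb, one_mul]
      _ = b * (a * a) * b * (a * b) := by rw [ha, mul_one]
      _ = b * a * ((a * b) * (a * b)) := by group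
      _ = b * a := by rw [h9, mul_one]
  have hQt : (Q : Subgroup Y) = ⊤ := by
    rw [eq_top_iff, ← h.perf, commutator_def, Subgroup.commutator_le]
    intro a _ b _
    have h7 := hcard (A := Y ⧸ (Q : Subgroup Y)) h6 (a : Y ⧸ (Q : Subgroup Y)) (b : Y ⧸ (Q : Subgroup Y))
    rw [← QuotientGroup.eq_one_iff]
    exact commutatorElement_eq_one_iff_mul_comm.2 h7
  have h7 : IsPGroup 3 Y := by
    have := Q.isPGroup'
    rw [hQt] at this
    exact this.of_surjective (Subgroup.topEquiv (G := Y)).toMonoidHom (Subgroup.topEquiv (G := Y)).surjective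
  obtain ⟨k, hk⟩ := IsPGroup.iff_card.1 h7
  have hk1 : k ≤ 1 := by
    by_contra hcon
    have h8 : 3 ^ 2 ∣ 6 := (pow_dvd_pow 3 (by omega)).trans (hk ▸ h2)
    norm_num at h8
  have hYc : ∀ a b : Y, a * b = b * a := by
    rcases Nat.le_one_iff_eq_zero_or_eq_one.1 hk1 with h8 | h8
    · rw [h8, pow_zero] at hk
      intro a b
      haveI := (Nat.card_eq_one_iff_unique.1 hk).1
      exact Subsingleton.elim _ _
    · rw [h8, pow_one] at hk
      intro a b
      haveI := isCyclic_of_prime_card hk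
      exact IsCyclic.commGroup.mul_comm a b
  apply h.Xt
  rw [eq_top_iff, ← h.perf, commutator_def, Subgroup.commutator_le]
  intro a _ b _
  rw [commutatorElement_eq_one_iff_mul_comm.2 (hYc a b)]
  exact one_mem X

/-- **the count for two layers** -/
theorem two_count {n₁ n₂ f₁ f₂ f : ℕ} {Y₁ U₁ Y₂ U₂ Y U : Type*} [Group Y₁] [Finite Y₁] [AddCommGroup U₁] [Finite U₁]
    [DistribMulAction Y₁ U₁] [Group Y₂] [Finite Y₂] [AddCommGroup U₂] [Finite U₂]
    [DistribMulAction Y₂ U₂] [Group Y] [Finite Y] [AddCommGroup U] [Finite U]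
    [DistribMulAction Y U] {X₁ : Subgroup Y₁} {B₁ : U₁ → U₁ → ZMod 2} {X₂ : Subgroup Y₂} {B₂ : U₂ → U₂ → ZMod 2}
    {X : Subgroup Y} {B : U → U → ZMod 2} (h₁ : SP 3 2 n₁ f₁ X₁ B₁) (h₂ : SP 3 2 n₂ f₂ X₂ B₂)
    (h : SP0 3 2 (n₁ + n₂) f X B) (hn₁ : n₁ ≤ 5) (hn₂ : n₂ ≤ 5)
    (hX : X ≤ Subgroup.center Y) (hc₁ : Nat.card (Y₁ ⧸ X₁) = Nat.card (Y ⧸ X))
    (hc₂ : Nat.card (Y₂ ⧸ X₂) = Nat.card (Y ⧸ X)) : False := by
  haveI : Fact (Nat.Prime 3) := ⟨Nat.prime_three⟩
  haveI := h.nX
  have hl₁ := two_le h₁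
  have hl₂ := two_le h₂
  obtain ⟨q₁, S₁⟩ := exists_SX' h₁
  obtain ⟨q₂, S₂⟩ := exists_SX' h₂
  have hd₁ : Nat.card (Y ⧸ X) ∣ P 2 n₁ := by
    rw [← hc₁]
    exact (card_quotient_dvd_card X₁).trans (card_dvd S₁)
  have hd₂ : Nat.card (Y ⧸ X) ∣ P 2 n₂ := by
    rw [← hc₂]
    exact (card_quotient_dvd_card X₂).trans (card_dvd S₂)
  obtain ⟨y, hy, hM3, hM9⟩ := exists_small hX h.cop h.pY
  obtain ⟨j, hj, hjn, hfix⟩ := exists_fix0 h hy
  have hI := h.ineq y hy j hjn hfix
  set M := (centralizer ({y} : Set Y)).index with hM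
  set c := Nat.card (Y ⧸ X) with hc
  have key : ∀ e : ℕ, 3 * e ≤ 2 ^ (n₁ + n₂) + 2 → 3 ^ e ≤ 2 ^ (2 * (n₁ + n₂)) * M := fun e he =>
    ineq_all h.hf hj hjn he hI
  have hsmall : c ∣ 720 → M ≤ 80 := by
    intro h720
    by_cases h9 : 9 ∣ c
    · have h27 : ¬ 27 ∣ c := by
        intro h27
        have := h27.trans h720
        norm_num at this
      have h10 := hM9 h9 h27
      have h11 := Nat.le_of_dvd (by norm_num) h720
      omega
    · have h240 : c ∣ 240 := by
        have h12 : c ∣ 3 * 240 := by simpa using h720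
        obtain ⟨d, hd⟩ := h.pY
        have hd' : c = 3 * d := hd
        rw [hd'] at h12 h9 ⊢
        have h13 : d ∣ 240 := Nat.dvd_of_mul_dvd_mul_left (by norm_num : 0 < 3) h12
        have h14 : ¬ 3 ∣ d := by
          rintro ⟨t, rfl⟩
          exact h9 ⟨t, by ring⟩
        have h15 : d ∣ 80 * 3 := by simpa using h13
        have h16 : d ∣ 80 :=
          (Nat.Coprime.symm ((Nat.Prime.coprime_iff_not_dvd Nat.prime_three).2 h14)).dvd_of_dvd_mul_right h15
        have := Nat.mul_dvd_mul_left 3 h16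
        simpa using this
      have h11 := Nat.le_of_dvd (by norm_num) h240
      omega
  have hle : ∀ {m : ℕ}, c ∣ P 2 m → ∀ b, P 2 m ≤ 3 * b + 2 → M ≤ b := by
    intro m hm b hb
    have h17 := Nat.le_of_dvd (Cfsg.Agent.H37.NW.P_pos le_rfl m) hm
    omega
  have p2 : c ∣ P 2 2 → M ≤ 80 := fun hh => hsmall (by rwa [P2] at hh)
  have p3 : c ∣ P 2 3 → M ≤ 483840 := fun hh => hle hh _ (by rw [P3]; norm_num)
  have p4 : c ∣ P 2 4 → M ≤ 15792537600 := fun hh => hle hh _ (by rw [P4]; norm_num)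
  have p5 : c ∣ P 2 5 → M ≤ 8271752173977600 := fun hh => hle hh _ (by rw [P5]; norm_num)
  have c1 : n₁ = 2 ∨ n₁ = 3 ∨ n₁ = 4 ∨ n₁ = 5 := by omega
  have c2 : n₂ = 2 ∨ n₂ = 3 ∨ n₂ = 4 ∨ n₂ = 5 := by omega
  rcases c1 with rfl | rfl | rfl | rfl <;> rcases c2 with rfl | rfl | rfl | rfl
  · have h18 := p2 hd₁
    have h19 : 183 ≤ M := num_four h.hf hj hjn hI
    omega
  · have h18 := p2 hd₁
    have h19 := key 11 (by norm_num)
    norm_num at h19
    omega
  · have h18 := p2 hd₁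
    have h19 := key 22 (by norm_num)
    norm_num at h19
    omega
  · have h18 := p2 hd₁
    have h19 := key 43 (by norm_num)
    norm_num at h19
    omega
  · have h18 := p2 hd₂
    have h19 := key 11 (by norm_num)
    norm_num at h19
    omega
  · have h18 := p3 hd₂
    have h19 := key 22 (by norm_num)
    norm_num at h19
    omega
  · have h18 := p3 hd₁
    have h19 := key 43 (by norm_num)
    norm_num at h19
    omega
  · have h18 := p3 hd₁
    have h19 := key 60 (by norm_num)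
    norm_num at h19
    omega
  · have h18 := p2 hd₂
    have h19 := key 22 (by norm_num)
    norm_num at h19
    omega
  · have h18 := p3 hd₂
    have h19 := key 43 (by norm_num)
    norm_num at h19
    omega
  · have h18 := p4 hd₂
    have h19 := key 60 (by norm_num)
    norm_num at h19
    omega
  · have h18 := p4 hd₁
    have h19 := key 80 (by norm_num)
    norm_num at h19
    omega
  · have h18 := p2 hd₂
    have h19 := key 43 (by norm_num)
    norm_num at h19
    omega
  · have h18 := p3 hd₂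
    have h19 := key 60 (by norm_num)
    norm_num at h19
    omega
  · have h18 := p4 hd₂
    have h19 := key 80 (by norm_num)
    norm_num at h19
    omega
  · have h18 := p5 hd₂
    have h19 := key 100 (by norm_num)
    norm_num at h19
    omega

end two

end Cfsg.Agent.H586.RIM
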